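import Cfsg.Agent.Lib.Theta.Modular

/-!
# Counting vectors of norm 4, 6, 8 in an even unimodular rootless lattice of rank 24
-/

set_option autoImplicit false

namespace Cfsg.Agent.Lib.Theta.Final

open Matrix Cfsg.Agent.Lib.Theta.Modular
open UpperHalfPlane hiding I
open ModularForm EisensteinSeries MatrixGroups ArithmeticFunction
open scoped ArithmeticFunction.sigma

theorem b4 : bernoulli 4 = -1 / 30 := by decide +kernel
theorem b6 : bernoulli 6 = 1 / 42 := by decide +kernel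

theorem P4_succ (m : ℕ) (hm : m ≠ 0) : (qExpansion 1 E₄).coeff m = 240 * (σ 3 m : ℂ) := by
  rw [E_qExpansion_coeff _ ⟨2, rfl⟩, if_neg hm, b4]
  norm_num

theorem P6_succ (m : ℕ) (hm : m ≠ 0) : (qExpansion 1 E₆).coeff m = -504 * (σ 5 m : ℂ) := by
  rw [E_qExpansion_coeff _ ⟨3, rfl⟩, if_neg hm, b6]
  norm_num

theorem s3_1 : σ 3 1 = 1 := by decide +kernel
theorem s3_2 : σ 3 2 = 9 := by decide +kernel
theorem s3_3 : σ 3 3 = 28 := by decide +kernel
theorem s3_4 : σ 3 4 = 73 := by decide +kernel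
theorem s5_1 : σ 5 1 = 1 := by decide +kernel
theorem s5_2 : σ 5 2 = 33 := by decide +kernel
theorem s5_3 : σ 5 3 = 244 := by decide +kernel
theorem s5_4 : σ 5 4 = 1057 := by decide +kernel

theorem P4_0 : (qExpansion 1 E₄).coeff 0 = 1 := E_qExpansion_coeff_zero _ ⟨2, rfl⟩
theorem P4_1 : (qExpansion 1 E₄).coeff 1 = 240 := by rw [P4_succ 1 (by norm_num), s3_1]; norm_num
theorem P4_2 : (qExpansion 1 E₄).coeff 2 = 2160 := by rw [P4_succ 2 (by norm_num), s3_2]; norm_num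
theorem P4_3 : (qExpansion 1 E₄).coeff 3 = 6720 := by rw [P4_succ 3 (by norm_num), s3_3]; norm_num
theorem P4_4 : (qExpansion 1 E₄).coeff 4 = 17520 := by rw [P4_succ 4 (by norm_num), s3_4]; norm_num
theorem P6_0 : (qExpansion 1 E₆).coeff 0 = 1 := E_qExpansion_coeff_zero _ ⟨3, rfl⟩
theorem P6_1 : (qExpansion 1 E₆).coeff 1 = -504 := by rw [P6_succ 1 (by norm_num), s5_1]; norm_num
theorem P6_2 : (qExpansion 1 E₆).coeff 2 = -16632 := by rw [P6_succ 2 (by norm_num), s5_2]; norm_num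
theorem P6_3 : (qExpansion 1 E₆).coeff 3 = -122976 := by rw [P6_succ 3 (by norm_num), s5_3]; norm_num
theorem P6_4 : (qExpansion 1 E₆).coeff 4 = -532728 := by rw [P6_succ 4 (by norm_num), s5_4]; norm_num

/-- The coefficients of a product, up to degree 4. -/
theorem coeff_mul_0 (P R : PowerSeries ℂ) : (P * R).coeff 0 = P.coeff 0 * R.coeff 0 := by
  simp [PowerSeries.coeff_mul, -PowerSeries.coeff_zero_eq_constantCoeff]
theorem coeff_mul_1 (P R : PowerSeries ℂ) :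
    (P * R).coeff 1 = P.coeff 0 * R.coeff 1 + P.coeff 1 * R.coeff 0 := by
  simp [PowerSeries.coeff_mul, Finset.Nat.antidiagonal_succ, -PowerSeries.coeff_zero_eq_constantCoeff]
theorem coeff_mul_2 (P R : PowerSeries ℂ) :
    (P * R).coeff 2 = P.coeff 0 * R.coeff 2 + P.coeff 1 * R.coeff 1 + P.coeff 2 * R.coeff 0 := by
  simp [PowerSeries.coeff_mul, Finset.Nat.antidiagonal_succ, -PowerSeries.coeff_zero_eq_constantCoeff]
  ring
theorem coeff_mul_3 (P R : PowerSeries ℂ) :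
    (P * R).coeff 3 = P.coeff 0 * R.coeff 3 + P.coeff 1 * R.coeff 2 + P.coeff 2 * R.coeff 1 +
      P.coeff 3 * R.coeff 0 := by
  simp [PowerSeries.coeff_mul, Finset.Nat.antidiagonal_succ, -PowerSeries.coeff_zero_eq_constantCoeff]
  ring
theorem coeff_mul_4 (P R : PowerSeries ℂ) :
    (P * R).coeff 4 = P.coeff 0 * R.coeff 4 + P.coeff 1 * R.coeff 3 + P.coeff 2 * R.coeff 2 +
      P.coeff 3 * R.coeff 1 + P.coeff 4 * R.coeff 0 := by
  simp [PowerSeries.coeff_mul, Finset.Nat.antidiagonal_succ, -PowerSeries.coeff_zero_eq_constantCoeff]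
  ring

noncomputable abbrev P4 : PowerSeries ℂ := qExpansion 1 E₄
noncomputable abbrev P6 : PowerSeries ℂ := qExpansion 1 E₆

theorem P4sq_0 : (P4 * P4).coeff 0 = 1 := by
  rw [coeff_mul_0, P4_0]; norm_num
theorem P4sq_1 : (P4 * P4).coeff 1 = 480 := by
  rw [coeff_mul_1, P4_0, P4_1]; norm_num
theorem P4sq_2 : (P4 * P4).coeff 2 = 61920 := by
  rw [coeff_mul_2, P4_0, P4_1, P4_2]; norm_num
theorem P4sq_3 : (P4 * P4).coeff 3 = 1050240 := by
  rw [coeff_mul_3, P4_0, P4_1, P4_2, P4_3]; norm_num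
theorem P4sq_4 : (P4 * P4).coeff 4 = 7926240 := by
  rw [coeff_mul_4, P4_0, P4_1, P4_2, P4_3, P4_4]; norm_num

theorem P4cu_0 : (P4 ^ 3).coeff 0 = 1 := by
  rw [pow_succ, pow_two, coeff_mul_0, P4sq_0, P4_0]; norm_num
theorem P4cu_1 : (P4 ^ 3).coeff 1 = 720 := by
  rw [pow_succ, pow_two, coeff_mul_1, P4sq_0, P4sq_1, P4_0, P4_1]; norm_num
theorem P4cu_2 : (P4 ^ 3).coeff 2 = 179280 := by
  rw [pow_succ, pow_two, coeff_mul_2, P4sq_0, P4sq_1, P4sq_2, P4_0, P4_1, P4_2]; norm_num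
theorem P4cu_3 : (P4 ^ 3).coeff 3 = 16954560 := by
  rw [pow_succ, pow_two, coeff_mul_3, P4sq_0, P4sq_1, P4sq_2, P4sq_3, P4_0, P4_1, P4_2, P4_3]; norm_num
theorem P4cu_4 : (P4 ^ 3).coeff 4 = 396974160 := by
  rw [pow_succ, pow_two, coeff_mul_4, P4sq_0, P4sq_1, P4sq_2, P4sq_3, P4sq_4, P4_0, P4_1, P4_2, P4_3, P4_4]
  norm_num

theorem P6sq_0 : (P6 ^ 2).coeff 0 = 1 := by
  rw [pow_two, coeff_mul_0, P6_0]; norm_num
theorem P6sq_1 : (P6 ^ 2).coeff 1 = -1008 := by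
  rw [pow_two, coeff_mul_1, P6_0, P6_1]; norm_num
theorem P6sq_2 : (P6 ^ 2).coeff 2 = 220752 := by
  rw [pow_two, coeff_mul_2, P6_0, P6_1, P6_2]; norm_num
theorem P6sq_3 : (P6 ^ 2).coeff 3 = 16519104 := by
  rw [pow_two, coeff_mul_3, P6_0, P6_1, P6_2, P6_3]; norm_num
theorem P6sq_4 : (P6 ^ 2).coeff 4 = 399517776 := by
  rw [pow_two, coeff_mul_4, P6_0, P6_1, P6_2, P6_3, P6_4]; norm_num

/-- `E₄³` in weight 12. -/
noncomputable def E4c : ModularForm 𝒮ℒ 12 := ModularForm.mcast (by decide) (E₄.pow 3)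
/-- `E₆²` in weight 12. -/
noncomputable def E6s : ModularForm 𝒮ℒ 12 := ModularForm.mcast (by decide) (E₆.pow 2)

theorem qE4c : qExpansion 1 E4c = P4 ^ 3 := by
  simp only [E4c, coe_mcast, ModularForm.qExpansion_pow one_pos one_mem_strictPeriods_SL]
theorem qE6s : qExpansion 1 E6s = P6 ^ 2 := by
  simp only [E6s, coe_mcast, ModularForm.qExpansion_pow one_pos one_mem_strictPeriods_SL]

section main
variable {B : Matrix (Fin 24) (Fin 24) ℤ} (hsymm : B.IsSymm)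
  (hpos : ∀ x : Fin 24 → ℤ, x ≠ 0 → 0 < x ⬝ᵥ (B *ᵥ x))
  (heven : ∀ x : Fin 24 → ℤ, (2 : ℤ) ∣ x ⬝ᵥ (B *ᵥ x)) (hdet : B.det = 1)

include hsymm hpos heven hdet

theorem coeff_theta (k : ℕ) :
    (qExpansion 1 (thetaForm B hsymm hpos heven hdet)).coeff k = (rep B k : ℂ) := by
  refine (ModularFormClass.qExpansion_coeff_unique one_pos one_mem_strictPeriods_SL
    (f := thetaForm B hsymm hpos heven hdet) (c := fun k => (rep B k : ℂ)) ?_ k).symm
  exact hasSum_rep hsymm hpos heven hdet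

theorem rep_zero : rep B 0 = 1 := by
  have h1 : hn B ⁻¹' {0} = {0} := by
    ext n
    simp only [Set.mem_preimage, Set.mem_singleton_iff]
    constructor
    · intro h
      by_contra hn0
      have h2 := hpos n hn0
      rw [Q_eq hpos heven, h] at h2
      simp at h2
    · rintro rfl
      have h3 := Q_eq hpos heven 0
      simp at h3
      omega
  unfold rep
  rw [h1]
  exact Nat.card_unique

theorem rep_one (h2 : ∀ x : Fin 24 → ℤ, x ⬝ᵥ (B *ᵥ x) ≠ 2) : rep B 1 = 0 := by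
  have h1 : hn B ⁻¹' {1} = ∅ := by
    ext n
    simp only [Set.mem_preimage, Set.mem_singleton_iff, Set.mem_empty_iff_false, iff_false]
    intro h
    apply h2 n
    rw [Q_eq hpos heven, h]
    norm_num
  unfold rep
  rw [h1]
  simp

theorem theta_eq (h2 : ∀ x : Fin 24 → ℤ, x ⬝ᵥ (B *ᵥ x) ≠ 2) :
    qExpansion 1 (thetaForm B hsymm hpos heven hdet) = (7 / 12 : ℂ) • (P4 ^ 3) + (5 / 12 : ℂ) • (P6 ^ 2) := by
  let θ' : ModularForm 𝒮ℒ 12 := thetaForm B hsymm hpos heven hdet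
  let g3 : ModularForm 𝒮ℒ 12 := (7 / 12 : ℂ) • E4c
  let g2 : ModularForm 𝒮ℒ 12 := (5 / 12 : ℂ) • E6s
  let g1 : ModularForm 𝒮ℒ 12 := θ' - g3
  let f : ModularForm 𝒮ℒ 12 := g1 - g2
  have hq : qExpansion 1 f = qExpansion 1 θ' - (7 / 12 : ℂ) • (P4 ^ 3) - (5 / 12 : ℂ) • (P6 ^ 2) := by
    have e1 : (⇑f : ℍ → ℂ) = ⇑g1 - ⇑g2 := rfl
    have e2 : (⇑g1 : ℍ → ℂ) = ⇑θ' - ⇑g3 := rfl
    have e3 : (⇑g2 : ℍ → ℂ) = (5 / 12 : ℂ) • ⇑E6s := rfl
    have e4 : (⇑g3 : ℍ → ℂ) = (7 / 12 : ℂ) • ⇑E4c := rfl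
    rw [e1, ModularForm.qExpansion_sub one_pos one_mem_strictPeriods_SL g1 g2, e2,
      ModularForm.qExpansion_sub one_pos one_mem_strictPeriods_SL θ' g3, e3, e4,
      ModularForm.qExpansion_smul one_pos one_mem_strictPeriods_SL _ E6s,
      ModularForm.qExpansion_smul one_pos one_mem_strictPeriods_SL _ E4c, qE4c, qE6s]
  have h0 : f = 0 := by
    apply sturm_bound_levelOne
    have h3 : (2 : ℕ∞) ≤ (qExpansion 1 f).order := by
      apply PowerSeries.le_order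
      intro i hi
      have hi2 : i < 2 := by exact_mod_cast hi
      rw [hq]
      simp only [map_sub, PowerSeries.coeff_smul, θ', coeff_theta hsymm hpos heven hdet]
      interval_cases i
      · rw [rep_zero hsymm hpos heven hdet, P4cu_0, P6sq_0]
        norm_num
      · rw [rep_one hsymm hpos heven hdet h2, P4cu_1, P6sq_1]
        norm_num
    refine lt_of_lt_of_le ?_ h3
    have h4 : (12 : ℤ).toNat / 12 = 1 := by decide
    rw [h4]
    norm_num
  have h5 : qExpansion 1 f = 0 := by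
    rw [h0]
    exact qExpansion_zero 1
  rw [h5, sub_sub, eq_comm, sub_eq_zero] at hq
  exact hq

theorem coeff_rep (h2 : ∀ x : Fin 24 → ℤ, x ⬝ᵥ (B *ᵥ x) ≠ 2) (k : ℕ) :
    (rep B k : ℂ) = (7 / 12 : ℂ) * (P4 ^ 3).coeff k + (5 / 12 : ℂ) * (P6 ^ 2).coeff k := by
  rw [← coeff_theta hsymm hpos heven hdet, theta_eq hsymm hpos heven hdet h2]
  simp [PowerSeries.coeff_smul]

theorem ncard_eq (k : ℕ) : {x : Fin 24 → ℤ | x ⬝ᵥ (B *ᵥ x) = 2 * (k : ℤ)}.ncard = rep B k := by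
  unfold rep
  rw [Nat.card_coe_set_eq]
  congr 1
  ext x
  simp only [Set.mem_setOf_eq, Set.mem_preimage, Set.mem_singleton_iff]
  rw [Q_eq hpos heven]
  omega

/-- The counts. -/
theorem counts (h2 : ∀ x : Fin 24 → ℤ, x ⬝ᵥ (B *ᵥ x) ≠ 2) :
    {x : Fin 24 → ℤ | x ⬝ᵥ (B *ᵥ x) = 4}.ncard = 196560 ∧
      {x : Fin 24 → ℤ | x ⬝ᵥ (B *ᵥ x) = 6}.ncard = 16773120 ∧
      {x : Fin 24 → ℤ | x ⬝ᵥ (B *ᵥ x) = 8}.ncard = 398034000 := by
  have h4 := ncard_eq hsymm hpos heven hdet 2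
  have h6 := ncard_eq hsymm hpos heven hdet 3
  have h8 := ncard_eq hsymm hpos heven hdet 4
  norm_num at h4 h6 h8
  rw [h4, h6, h8]
  have c2 := coeff_rep hsymm hpos heven hdet h2 2
  have c3 := coeff_rep hsymm hpos heven hdet h2 3
  have c4 := coeff_rep hsymm hpos heven hdet h2 4
  rw [P4cu_2, P6sq_2] at c2
  rw [P4cu_3, P6sq_3] at c3
  rw [P4cu_4, P6sq_4] at c4
  refine ⟨?_, ?_, ?_⟩
  · have : (rep B 2 : ℂ) = ((196560 : ℕ) : ℂ) := by
      rw [c2]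
      norm_num
    exact_mod_cast this
  · have : (rep B 3 : ℂ) = ((16773120 : ℕ) : ℂ) := by
      rw [c3]
      norm_num
    exact_mod_cast this
  · have : (rep B 4 : ℂ) = ((398034000 : ℕ) : ℂ) := by
      rw [c4]
      norm_num
    exact_mod_cast this

end main

end Cfsg.Agent.Lib.Theta.Final
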