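import Cfsg.Agent.Lib.Theta.Poisson

/-!
# The theta function of a positive even unimodular integral form: the transformation under `S`
-/

set_option autoImplicit false

namespace Cfsg.Agent.Lib.Theta.Gauss

open MeasureTheory Complex Matrix UnitAddTorus Cfsg.Agent.Lib.Theta.Poisson
open scoped Real

variable {m : ℕ}

theorem summable_exp_sq {a : ℝ} (ha : 0 < a) : Summable fun n : ℤ => Real.exp (-a * (n : ℝ) ^ 2) := by
  have h1 : Summable fun n : ℕ => Real.exp (-a * (n : ℝ) ^ 2) := by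
    have hg : Summable fun n : ℕ => Real.exp (-a) ^ n :=
      summable_geometric_of_lt_one (Real.exp_pos _).le (Real.exp_lt_one_iff.2 (by linarith))
    refine Summable.of_nonneg_of_le (fun _ => (Real.exp_pos _).le) (fun n => ?_) hg
    rw [← Real.exp_nat_mul]
    apply Real.exp_le_exp.2
    have h2 : (n : ℝ) ≤ (n : ℝ) ^ 2 := by
      rcases Nat.eq_zero_or_pos n with rfl | hn
      · simp
      · have : (1 : ℝ) ≤ n := by exact_mod_cast hn
        nlinarith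
    nlinarith
  rw [summable_int_iff_summable_nat_and_neg]
  constructor
  · simpa using h1
  · simpa using h1

theorem summable_exp_N2 (m : ℕ) {a : ℝ} (ha : 0 < a) :
    Summable fun n : Fin m → ℤ => Real.exp (-a * ∑ i, ((n i : ℤ) : ℝ) ^ 2) := by
  induction m with
  | zero => exact Summable.of_finite
  | succ m ih =>
    rw [← (Fin.consEquiv (fun _ : Fin (m + 1) => ℤ)).summable_iff]
    have h := (summable_exp_sq ha).mul_of_nonneg ih (fun _ => (Real.exp_pos _).le)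
      (fun _ => (Real.exp_pos _).le)
    refine h.congr fun p => ?_
    simp only [Function.comp_apply, Fin.consEquiv_apply, Fin.sum_univ_succ, Fin.cons_zero,
      Fin.cons_succ]
    rw [← Real.exp_add]
    congr 1
    ring

/-- The real matrix. -/
noncomputable def BR (B : Matrix (Fin m) (Fin m) ℤ) : Matrix (Fin m) (Fin m) ℝ :=
  B.map (Int.cast : ℤ → ℝ)

theorem QR_ofZ (B : Matrix (Fin m) (Fin m) ℤ) (x : Fin m → ℤ) :
    ofZ x ⬝ᵥ (BR B *ᵥ ofZ x) = ((x ⬝ᵥ (B *ᵥ x) : ℤ) : ℝ) := by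
  simp only [dotProduct, mulVec, ofZ, BR, Matrix.map_apply]
  push_cast
  rfl

theorem continuous_QR (M : Matrix (Fin m) (Fin m) ℝ) : Continuous fun x : Fin m → ℝ => x ⬝ᵥ (M *ᵥ x) :=
  Continuous.dotProduct continuous_id (Continuous.matrix_mulVec continuous_const continuous_id)

theorem QR_nonneg (B : Matrix (Fin m) (Fin m) ℤ) (hpos : ∀ x : Fin m → ℤ, x ≠ 0 → 0 < x ⬝ᵥ (B *ᵥ x))
    (x : Fin m → ℝ) : 0 ≤ x ⬝ᵥ (BR B *ᵥ x) := by
  have hd : DenseRange (Pi.map (fun (_ : Fin m) (q : ℚ) => (q : ℝ))) :=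
    DenseRange.piMap fun _ => Rat.denseRange_cast
  refine hd.induction_on (p := fun x => 0 ≤ x ⬝ᵥ (BR B *ᵥ x)) x
    (isClosed_le continuous_const (continuous_QR _)) ?_
  intro q
  obtain ⟨b, hb⟩ := IsLocalization.exist_integer_multiples_of_finite (nonZeroDivisors ℤ) q
  choose z hz using hb
  have hb0 : ((b : ℤ) : ℝ) ≠ 0 := by
    have := nonZeroDivisors.coe_ne_zero b
    exact_mod_cast this
  have e : Pi.map (fun (_ : Fin m) (q : ℚ) => (q : ℝ)) q = ((b : ℤ) : ℝ)⁻¹ • ofZ z := by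
    funext i
    have h1 : ((z i : ℤ) : ℚ) = (b : ℤ) • q i := hz i
    have h2 : ((z i : ℤ) : ℝ) = ((b : ℤ) : ℝ) * ((q i : ℚ) : ℝ) := by
      have := congrArg (fun r : ℚ => (r : ℝ)) h1
      simpa using this
    simp only [Pi.map_apply, Pi.smul_apply, smul_eq_mul, ofZ]
    rw [h2]
    field_simp
  have h3 : 0 ≤ ((z ⬝ᵥ (B *ᵥ z) : ℤ) : ℝ) := by
    by_cases h0 : z = 0
    · simp [h0]
    · exact_mod_cast (hpos z h0).le
  rw [e, mulVec_smul, smul_dotProduct, dotProduct_smul, QR_ofZ]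
  simp only [smul_eq_mul]
  have h4 : 0 ≤ ((b : ℤ) : ℝ)⁻¹ * ((b : ℤ) : ℝ)⁻¹ := mul_self_nonneg _
  have h5 := mul_nonneg h4 h3
  linarith [h5, mul_assoc ((b : ℤ) : ℝ)⁻¹ ((b : ℤ) : ℝ)⁻¹ ((z ⬝ᵥ (B *ᵥ z) : ℤ) : ℝ)]

section
open scoped MatrixOrder Matrix.Norms.L2Operator

theorem exists_factor_of_posSemidef (M : Matrix (Fin m) (Fin m) ℝ) (h : M.PosSemidef) :
    ∃ A : Matrix (Fin m) (Fin m) ℝ, M = Aᵀ * A := by
  obtain ⟨A, hA⟩ := CStarAlgebra.nonneg_iff_eq_star_mul_self.mp h.nonneg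
  refine ⟨A, ?_⟩
  rw [hA, star_eq_conjTranspose, conjTranspose_eq_transpose_of_trivial]

end

theorem det_BR (B : Matrix (Fin m) (Fin m) ℤ) : (BR B).det = ((B.det : ℤ) : ℝ) := by
  unfold BR
  exact ((Int.castRingHom ℝ).map_det B).symm

theorem exists_factor (B : Matrix (Fin m) (Fin m) ℤ) (hsymm : B.IsSymm)
    (hpos : ∀ x : Fin m → ℤ, x ≠ 0 → 0 < x ⬝ᵥ (B *ᵥ x)) (hdet : B.det = 1) :
    ∃ A : Matrix (Fin m) (Fin m) ℝ, BR B = Aᵀ * A ∧ A.det ^ 2 = 1 := by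
  have h1 : (BR B).PosSemidef := by
    refine .of_dotProduct_mulVec_nonneg ?_ fun x => ?_
    · ext i j
      have := congrFun (congrFun hsymm i) j
      simp only [conjTranspose_apply, star_trivial, BR, Matrix.map_apply]
      simp only [transpose_apply] at this
      rw [this]
    · rw [star_trivial]
      exact QR_nonneg B hpos x
  obtain ⟨A, hA⟩ := exists_factor_of_posSemidef _ h1
  refine ⟨A, hA, ?_⟩
  have h2 := det_BR B
  rw [hdet, hA, det_mul, det_transpose] at h2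
  rw [sq, h2]
  simp

/-- The sum of squares. -/
def N2 (x : Fin m → ℝ) : ℝ := ∑ i, x i ^ 2

theorem N2_nonneg (x : Fin m → ℝ) : 0 ≤ N2 x :=
  Finset.sum_nonneg fun i _ => sq_nonneg _

theorem QR_eq {B : Matrix (Fin m) (Fin m) ℤ} {A : Matrix (Fin m) (Fin m) ℝ} (hA : BR B = Aᵀ * A)
    (x : Fin m → ℝ) : x ⬝ᵥ (BR B *ᵥ x) = N2 (A *ᵥ x) := by
  rw [hA, ← mulVec_mulVec, dotProduct_mulVec, vecMul_transpose]
  simp [N2, dotProduct, sq]

theorem N2_mulVec_le (M : Matrix (Fin m) (Fin m) ℝ) (v : Fin m → ℝ) :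
    N2 (M *ᵥ v) ≤ (∑ i, ∑ j, M i j ^ 2) * N2 v := by
  unfold N2
  rw [Finset.sum_mul]
  refine Finset.sum_le_sum fun i _ => ?_
  exact Finset.sum_mul_sq_le_sq_mul_sq Finset.univ (fun j => M i j) v

theorem exists_lower {A : Matrix (Fin m) (Fin m) ℝ} (hA : A.det ^ 2 = 1) :
    ∃ c : ℝ, 0 < c ∧ ∀ x : Fin m → ℝ, c * N2 x ≤ N2 (A *ᵥ x) := by
  have hd : IsUnit A.det := by
    rw [isUnit_iff_ne_zero]
    intro h0
    rw [h0] at hA
    norm_num at hA
  set C : ℝ := ∑ i, ∑ j, A⁻¹ i j ^ 2 with hC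
  have hC0 : 0 ≤ C := Finset.sum_nonneg fun i _ => Finset.sum_nonneg fun j _ => sq_nonneg _
  refine ⟨(C + 1)⁻¹, by positivity, fun x => ?_⟩
  have h1 := N2_mulVec_le A⁻¹ (A *ᵥ x)
  rw [mulVec_mulVec, nonsing_inv_mul _ hd, one_mulVec] at h1
  have h2 : 0 ≤ N2 (A *ᵥ x) := N2_nonneg _
  rw [inv_mul_le_iff₀ (by positivity)]
  nlinarith

/-- The Gaussian function. -/
noncomputable def F (B : Matrix (Fin m) (Fin m) ℤ) (τ : ℂ) (x : Fin m → ℝ) : ℂ :=
  cexp (π * I * τ * ((x ⬝ᵥ (BR B *ᵥ x) : ℝ) : ℂ))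

theorem norm_F (B : Matrix (Fin m) (Fin m) ℤ) (τ : ℂ) (x : Fin m → ℝ) :
    ‖F B τ x‖ = Real.exp (-π * τ.im * (x ⬝ᵥ (BR B *ᵥ x))) := by
  unfold F
  rw [Complex.norm_exp]
  congr 1
  simp [Complex.mul_re, Complex.mul_im]

theorem continuous_F (B : Matrix (Fin m) (Fin m) ℤ) (τ : ℂ) : Continuous (F B τ) := by
  unfold F
  exact Complex.continuous_exp.comp (continuous_const.mul (Complex.continuous_ofReal.comp (continuous_QR _)))

theorem le_N2_add (t : Fin m → ℝ) (n : Fin m → ℝ) : N2 n / 2 - N2 t ≤ N2 (t + n) := by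
  unfold N2
  rw [Finset.sum_div, ← Finset.sum_sub_distrib]
  refine Finset.sum_le_sum fun i _ => ?_
  simp only [Pi.add_apply]
  nlinarith [sq_nonneg (2 * t i + n i)]

theorem N2_le_of_abs {R : ℝ} {t : Fin m → ℝ} (h : ∀ i, |t i| ≤ R) : N2 t ≤ m * R ^ 2 := by
  unfold N2
  have h1 : ∀ i ∈ Finset.univ, t i ^ 2 ≤ R ^ 2 := fun i _ => by
    rw [← sq_abs (t i)]
    exact pow_le_pow_left₀ (abs_nonneg _) (h i) 2
  have := Finset.sum_le_card_nsmul _ _ _ h1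
  simpa using this

theorem unifSum_F {B : Matrix (Fin m) (Fin m) ℤ} {c : ℝ} (hc : 0 < c)
    (hlow : ∀ x : Fin m → ℝ, c * N2 x ≤ x ⬝ᵥ (BR B *ᵥ x)) {τ : ℂ} (hτ : 0 < τ.im) : UnifSum (F B τ) := by
  intro R
  set a : ℝ := π * τ.im * c with ha
  have ha0 : 0 < a := by positivity
  refine ⟨fun n => Real.exp (a * (m * R ^ 2)) * Real.exp (-(a / 2) * ∑ i, ((n i : ℤ) : ℝ) ^ 2),
    (summable_exp_N2 m (by positivity)).mul_left _, fun n t ht => ?_⟩
  show ‖F B τ (t + ofZ n)‖ ≤ Real.exp (a * (m * R ^ 2)) * Real.exp (-(a / 2) * ∑ i, ((n i : ℤ) : ℝ) ^ 2)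
  rw [norm_F, ← Real.exp_add]
  apply Real.exp_le_exp.2
  have h1 := hlow (t + ofZ n)
  have h2 := le_N2_add t (ofZ n)
  have h3 := N2_le_of_abs ht
  have h4 : N2 (ofZ n) = ∑ i, ((n i : ℤ) : ℝ) ^ 2 := rfl
  rw [← h4]
  have h5 : 0 < π * τ.im := by positivity
  have h6 : -π * τ.im * ((t + ofZ n) ⬝ᵥ (BR B *ᵥ (t + ofZ n))) ≤ -(π * τ.im) * (c * N2 (t + ofZ n)) := by
    have := mul_le_mul_of_nonneg_left h1 h5.le
    linarith
  have h7 : (π * τ.im) * (c * (N2 (ofZ n) / 2 - N2 t)) ≤ (π * τ.im) * (c * N2 (t + ofZ n)) :=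
    mul_le_mul_of_nonneg_left (mul_le_mul_of_nonneg_left h2 hc.le) h5.le
  have h8 : a * N2 t ≤ a * (m * R ^ 2) := mul_le_mul_of_nonneg_left h3 ha0.le
  have h9 : (π * τ.im) * (c * (N2 (ofZ n) / 2 - N2 t)) = a / 2 * N2 (ofZ n) - a * N2 t := by
    rw [ha]
    ring
  linarith

theorem summable_F {B : Matrix (Fin m) (Fin m) ℤ} {c : ℝ} (hc : 0 < c)
    (hlow : ∀ x : Fin m → ℝ, c * N2 x ≤ x ⬝ᵥ (BR B *ᵥ x)) {τ : ℂ} (hτ : 0 < τ.im) :
    Summable fun n : Fin m → ℤ => F B τ (ofZ n) := by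
  obtain ⟨u, hu, h⟩ := unifSum_F hc hlow hτ 0
  refine Summable.of_norm_bounded hu fun n => ?_
  have := h n 0 (by simp)
  simpa using this

/-- The general Gaussian integrand. -/
noncomputable def G (b : ℂ) (e : Fin m → ℂ) (v : Fin m → ℝ) : ℂ :=
  cexp (-b * ∑ i, (v i : ℂ) ^ 2 + ∑ i, e i * v i)

theorem measurePreserving_A {A : Matrix (Fin m) (Fin m) ℝ} (hA : A.det ^ 2 = 1) :
    MeasurePreserving (fun x : Fin m → ℝ => A *ᵥ x) volume volume := by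
  have hd : A.det ≠ 0 := by
    intro h0
    rw [h0] at hA
    norm_num at hA
  refine ⟨(Continuous.matrix_mulVec continuous_const continuous_id).measurable, ?_⟩
  have h1 := Real.map_matrix_volume_pi_eq_smul_volume_pi hd
  have h2 : |A.det⁻¹| = 1 := by
    rw [abs_inv]
    have : |A.det| = 1 := (pow_eq_one_iff_of_nonneg (abs_nonneg _) two_ne_zero).1 (by rw [sq_abs, hA])
    rw [this, inv_one]
  rw [h2] at h1
  have h3 : (fun x : Fin m → ℝ => A *ᵥ x) = ⇑(toLin' A) := by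
    funext x
    simp
  rw [h3]
  simpa using h1

theorem measurableEmbedding_A {A : Matrix (Fin m) (Fin m) ℝ} (hA : A.det ^ 2 = 1) :
    MeasurableEmbedding (fun x : Fin m → ℝ => A *ᵥ x) := by
  have hd : IsUnit A.det := by
    rw [isUnit_iff_ne_zero]
    intro h0
    rw [h0] at hA
    norm_num at hA
  let e : (Fin m → ℝ) ≃ₜ (Fin m → ℝ) :=
    { toFun := fun x => A *ᵥ x
      invFun := fun x => A⁻¹ *ᵥ x
      left_inv := fun x => by
        simp only [mulVec_mulVec, nonsing_inv_mul _ hd, one_mulVec]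
      right_inv := fun x => by
        simp only [mulVec_mulVec, mul_nonsing_inv _ hd, one_mulVec]
      continuous_toFun := Continuous.matrix_mulVec continuous_const continuous_id
      continuous_invFun := Continuous.matrix_mulVec continuous_const continuous_id }
  exact e.measurableEmbedding

theorem F_eq_G {B : Matrix (Fin m) (Fin m) ℤ} {A : Matrix (Fin m) (Fin m) ℝ} (hA : BR B = Aᵀ * A)
    (τ : ℂ) (x : Fin m → ℝ) : F B τ x = G (-(π * I * τ)) 0 (A *ᵥ x) := by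
  unfold F G
  rw [QR_eq hA]
  congr 1
  simp [N2]

theorem integrable_F {B : Matrix (Fin m) (Fin m) ℤ} {A : Matrix (Fin m) (Fin m) ℝ} (hA : BR B = Aᵀ * A)
    (hd : A.det ^ 2 = 1) {τ : ℂ} (hτ : 0 < τ.im) : Integrable (F B τ) := by
  have hb : 0 < (-(π * I * τ)).re := by
    simp [Complex.mul_re, Complex.mul_im]
    positivity
  have h1 : Integrable (G (-(π * I * τ)) (0 : Fin m → ℂ)) := GaussianFourier.integrable_cexp_neg_mul_sum_add hb 0
  have h2 := ((measurePreserving_A hd).integrable_comp_emb (measurableEmbedding_A hd)).2 h1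
  refine h2.congr (Filter.Eventually.of_forall fun x => ?_)
  exact (F_eq_G hA τ x).symm

theorem chi_eq (k : Fin m → ℤ) (x : Fin m → ℝ) :
    chi k x = cexp (-(2 * π * I) * ∑ i, ((k i : ℤ) : ℂ) * (x i : ℂ)) := by
  unfold chi toT
  simp only [mFourier, ContinuousMap.coe_mk]
  rw [Finset.mul_sum, Complex.exp_sum]
  refine Finset.prod_congr rfl fun i _ => ?_
  rw [Pi.neg_apply, fourier_coe_apply]
  congr 1
  push_cast
  ring_nf

theorem dot_BR {B : Matrix (Fin m) (Fin m) ℤ} {A : Matrix (Fin m) (Fin m) ℝ} (hA : BR B = Aᵀ * A)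
    (w x : Fin m → ℝ) : (BR B *ᵥ w) ⬝ᵥ x = (A *ᵥ w) ⬝ᵥ (A *ᵥ x) := by
  rw [hA, ← mulVec_mulVec, mulVec_transpose, dotProduct_mulVec]

theorem cast_mulVec (B : Matrix (Fin m) (Fin m) ℤ) (y : Fin m → ℤ) (i : Fin m) :
    (((B *ᵥ y) i : ℤ) : ℝ) = (BR B *ᵥ ofZ y) i := by
  simp [mulVec, dotProduct, BR, ofZ]

theorem sum_mulVec_mul {B : Matrix (Fin m) (Fin m) ℤ} {A : Matrix (Fin m) (Fin m) ℝ} (hA : BR B = Aᵀ * A)
    (y : Fin m → ℤ) (x : Fin m → ℝ) :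
    ∑ i, (((B *ᵥ y) i : ℤ) : ℂ) * (x i : ℂ) = ∑ i, (((A *ᵥ ofZ y) i : ℝ) : ℂ) * (((A *ᵥ x) i : ℝ) : ℂ) := by
  have h1 := dot_BR hA (ofZ y) x
  simp only [dotProduct] at h1
  have h2 : ∑ i, (BR B *ᵥ ofZ y) i * x i = ∑ i, (((B *ᵥ y) i : ℤ) : ℝ) * x i :=
    Finset.sum_congr rfl fun i _ => by rw [cast_mulVec]
  rw [h2] at h1
  have h3 := congrArg (fun r : ℝ => (r : ℂ)) h1
  simpa using h3

theorem chi_mul_F {B : Matrix (Fin m) (Fin m) ℤ} {A : Matrix (Fin m) (Fin m) ℝ} (hA : BR B = Aᵀ * A)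
    (τ : ℂ) (y : Fin m → ℤ) (x : Fin m → ℝ) :
    chi (B *ᵥ y) x * F B τ x =
      G (-(π * I * τ)) (fun i => -(2 * π * I) * (((A *ᵥ ofZ y) i : ℝ) : ℂ)) (A *ᵥ x) := by
  rw [chi_eq, F_eq_G hA, sum_mulVec_mul hA]
  unfold G
  rw [← Complex.exp_add]
  congr 1
  simp only [Pi.zero_apply, zero_mul, Finset.sum_const_zero, add_zero]
  rw [Finset.mul_sum]
  simp only [mul_assoc]
  ring

theorem fhat_F {B : Matrix (Fin m) (Fin m) ℤ} {A : Matrix (Fin m) (Fin m) ℝ} (hA : BR B = Aᵀ * A)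
    (hd : A.det ^ 2 = 1) {τ : ℂ} (hτ : 0 < τ.im) (y : Fin m → ℤ) :
    fhat (F B τ) (B *ᵥ y) = ((π : ℂ) / (-(π * I * τ))) ^ ((m : ℂ) / 2) * F B (-1 / τ) (ofZ y) := by
  have hb : 0 < (-((π : ℂ) * I * τ)).re := by
    simp [Complex.mul_re, Complex.mul_im]
    positivity
  have hτ0 : τ ≠ 0 := by
    intro h0
    rw [h0] at hτ
    simp at hτ
  unfold fhat
  have h1 : (fun x => chi (B *ᵥ y) x * F B τ x) = fun x =>
      G (-(π * I * τ)) (fun i => -(2 * π * I) * (((A *ᵥ ofZ y) i : ℝ) : ℂ)) (A *ᵥ x) :=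
    funext (chi_mul_F hA τ y)
  rw [h1]
  have h2 := (measurePreserving_A hd).integral_comp (measurableEmbedding_A hd)
    (G (-((π : ℂ) * I * τ)) (fun i => -(2 * π * I) * (((A *ᵥ ofZ y) i : ℝ) : ℂ)))
  rw [h2]
  unfold G
  rw [GaussianFourier.integral_cexp_neg_mul_sum_add hb]
  simp only [Fintype.card_fin]
  congr 1
  unfold F
  congr 1
  rw [QR_eq hA]
  have h3 : ((N2 (A *ᵥ ofZ y) : ℝ) : ℂ) = ∑ i, (((A *ᵥ ofZ y) i : ℝ) : ℂ) ^ 2 := by
    simp [N2]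
  rw [h3]
  simp only [mul_pow]
  rw [← Finset.mul_sum]
  have hπ : (π : ℂ) ≠ 0 := by exact_mod_cast Real.pi_ne_zero
  field_simp
  ring

/-- The theta series, as a function of a complex variable. -/
noncomputable def th (B : Matrix (Fin m) (Fin m) ℤ) (τ : ℂ) : ℂ := ∑' n : Fin m → ℤ, F B τ (ofZ n)

theorem im_neg_one_div_pos {τ : ℂ} (hτ : 0 < τ.im) : 0 < (-1 / τ).im := by
  have hτ0 : τ ≠ 0 := by
    intro h0
    rw [h0] at hτ
    simp at hτ
  have h1 : 0 < Complex.normSq τ := Complex.normSq_pos.2 hτ0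
  simp only [neg_div, one_div, Complex.neg_im, Complex.inv_im, neg_neg]
  positivity

/-- The integer matrix as a bijection. -/
noncomputable def mulEquiv (B : Matrix (Fin m) (Fin m) ℤ) (hdet : B.det = 1) :
    (Fin m → ℤ) ≃ (Fin m → ℤ) where
  toFun y := B *ᵥ y
  invFun y := B⁻¹ *ᵥ y
  left_inv y := by
    have hd : IsUnit B.det := by
      rw [hdet]
      exact isUnit_one
    simp only [mulVec_mulVec, nonsing_inv_mul _ hd, one_mulVec]
  right_inv y := by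
    have hd : IsUnit B.det := by
      rw [hdet]
      exact isUnit_one
    simp only [mulVec_mulVec, mul_nonsing_inv _ hd, one_mulVec]

theorem th_S (B : Matrix (Fin m) (Fin m) ℤ) (hsymm : B.IsSymm)
    (hpos : ∀ x : Fin m → ℤ, x ≠ 0 → 0 < x ⬝ᵥ (B *ᵥ x)) (hdet : B.det = 1) {τ : ℂ} (hτ : 0 < τ.im) :
    th B τ = ((π : ℂ) / (-(π * I * τ))) ^ ((m : ℂ) / 2) * th B (-1 / τ) := by
  obtain ⟨A, hA, hd⟩ := exists_factor B hsymm hpos hdet
  obtain ⟨c, hc, hl⟩ := exists_lower hd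
  have hlow : ∀ x : Fin m → ℝ, c * N2 x ≤ x ⬝ᵥ (BR B *ᵥ x) := fun x => by
    rw [QR_eq hA]
    exact hl x
  let e := mulEquiv B hdet
  have hτ' := im_neg_one_div_pos hτ
  have he : fhat (F B τ) ∘ e = fun y =>
      ((π : ℂ) / (-(π * I * τ))) ^ ((m : ℂ) / 2) * F B (-1 / τ) (ofZ y) :=
    funext fun y => fhat_F hA hd hτ y
  have hs : Summable (fhat (F B τ)) := by
    rw [← e.summable_iff, he]
    exact (summable_F hc hlow hτ').mul_left _
  have h := hasSum_fhat (continuous_F B τ) (unifSum_F hc hlow hτ) (integrable_F hA hd hτ) hs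
  rw [← e.hasSum_iff, he] at h
  have h2 := h.tsum_eq
  rw [tsum_mul_left] at h2
  exact h2.symm

/-- The lower bound. -/
theorem exists_lower_QR (B : Matrix (Fin m) (Fin m) ℤ) (hsymm : B.IsSymm)
    (hpos : ∀ x : Fin m → ℤ, x ≠ 0 → 0 < x ⬝ᵥ (B *ᵥ x)) (hdet : B.det = 1) :
    ∃ c : ℝ, 0 < c ∧ ∀ x : Fin m → ℝ, c * N2 x ≤ x ⬝ᵥ (BR B *ᵥ x) := by
  obtain ⟨A, hA, hd⟩ := exists_factor B hsymm hpos hdet
  obtain ⟨c, hc, hl⟩ := exists_lower hd
  exact ⟨c, hc, fun x => by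
    rw [QR_eq hA]
    exact hl x⟩

end Cfsg.Agent.Lib.Theta.Gauss
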