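import Cfsg.Agent.Lib.Theta.Gauss

/-!
# The theta series of a positive even unimodular form of rank 24 as a modular form
-/

set_option autoImplicit false

namespace Cfsg.Agent.Lib.Theta.Modular

open Complex Matrix Cfsg.Agent.Lib.Theta.Poisson Cfsg.Agent.Lib.Theta.Gauss
open UpperHalfPlane hiding I
open ModularForm SlashInvariantForm MatrixGroups
open scoped Real Manifold

local notation "𝕢" => Function.Periodic.qParam

variable {m : ℕ}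

/-- Half of the norm. -/
noncomputable def hn (B : Matrix (Fin m) (Fin m) ℤ) (n : Fin m → ℤ) : ℕ := ((n ⬝ᵥ (B *ᵥ n)) / 2).toNat

theorem Q_eq {B : Matrix (Fin m) (Fin m) ℤ} (hpos : ∀ x : Fin m → ℤ, x ≠ 0 → 0 < x ⬝ᵥ (B *ᵥ x))
    (heven : ∀ x : Fin m → ℤ, (2 : ℤ) ∣ x ⬝ᵥ (B *ᵥ x)) (n : Fin m → ℤ) :
    n ⬝ᵥ (B *ᵥ n) = 2 * (hn B n : ℤ) := by
  have h0 : 0 ≤ n ⬝ᵥ (B *ᵥ n) := by
    by_cases h : n = 0
    · simp [h]
    · exact (hpos n h).le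
  obtain ⟨k, hk⟩ := heven n
  unfold hn
  rw [hk]
  have : (2 : ℤ) * k / 2 = k := by omega
  rw [this, Int.toNat_of_nonneg (by omega)]

theorem F_ofZ_eq_pow {B : Matrix (Fin m) (Fin m) ℤ} (hpos : ∀ x : Fin m → ℤ, x ≠ 0 → 0 < x ⬝ᵥ (B *ᵥ x))
    (heven : ∀ x : Fin m → ℤ, (2 : ℤ) ∣ x ⬝ᵥ (B *ᵥ x)) (τ : ℂ) (n : Fin m → ℤ) :
    F B τ (ofZ n) = cexp (2 * π * I * τ) ^ hn B n := by
  unfold F
  rw [QR_ofZ, Q_eq hpos heven, ← Complex.exp_nat_mul]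
  congr 1
  push_cast
  ring

theorem th_T {B : Matrix (Fin m) (Fin m) ℤ} (hpos : ∀ x : Fin m → ℤ, x ≠ 0 → 0 < x ⬝ᵥ (B *ᵥ x))
    (heven : ∀ x : Fin m → ℤ, (2 : ℤ) ∣ x ⬝ᵥ (B *ᵥ x)) (τ : ℂ) : th B (1 + τ) = th B τ := by
  unfold th
  congr 1
  funext n
  rw [F_ofZ_eq_pow hpos heven, F_ofZ_eq_pow hpos heven]
  congr 1
  have : 2 * (π : ℂ) * I * (1 + τ) = 2 * π * I * τ + 2 * π * I := by ring
  rw [this, Complex.exp_add, Complex.exp_two_pi_mul_I, mul_one]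

/-- The theta series on the upper half plane. -/
noncomputable def thetaFun (B : Matrix (Fin m) (Fin m) ℤ) : ℍ → ℂ := fun z => th B (z : ℂ)

set_option backward.isDefEq.respectTransparency.types false in
theorem thetaFun_T {B : Matrix (Fin m) (Fin m) ℤ} (hpos : ∀ x : Fin m → ℤ, x ≠ 0 → 0 < x ⬝ᵥ (B *ᵥ x))
    (heven : ∀ x : Fin m → ℤ, (2 : ℤ) ∣ x ⬝ᵥ (B *ᵥ x)) :
    thetaFun B ∣[(12 : ℤ)] ModularGroup.T = thetaFun B := by
  ext z
  rw [SL_slash_apply, denom, modular_T_smul, ModularGroup.T]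
  simp [thetaFun, th_T hpos heven]

theorem kappa_eq {z : ℂ} (hz : z ≠ 0) :
    ((π : ℂ) / (-(π * I * z))) ^ (((24 : ℕ) : ℂ) / 2) = (z ^ (-12 : ℤ)) := by
  have h1 : (((24 : ℕ) : ℂ) / 2) = ((12 : ℕ) : ℂ) := by norm_num
  rw [h1, Complex.cpow_natCast]
  have hπ : (π : ℂ) ≠ 0 := by exact_mod_cast Real.pi_ne_zero
  have h2 : (π : ℂ) / (-(π * I * z)) = I / z := by
    field_simp
    rw [Complex.I_sq]
  rw [h2, div_pow]
  have h3 : I ^ 12 = 1 := by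
    rw [show (12 : ℕ) = 4 * 3 by norm_num, pow_mul, Complex.I_pow_four, one_pow]
  rw [h3, _root_.zpow_neg, one_div]
  rfl

set_option backward.isDefEq.respectTransparency.types false in
theorem thetaFun_S {B : Matrix (Fin 24) (Fin 24) ℤ} (hsymm : B.IsSymm)
    (hpos : ∀ x : Fin 24 → ℤ, x ≠ 0 → 0 < x ⬝ᵥ (B *ᵥ x)) (hdet : B.det = 1) :
    thetaFun B ∣[(12 : ℤ)] ModularGroup.S = thetaFun B := by
  ext z
  rw [SlashInvariantForm.slash_S_apply]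
  have h := th_S B hsymm hpos hdet z.im_pos
  have hz : (z : ℂ) ≠ 0 := z.ne_zero
  rw [kappa_eq hz] at h
  show th B _ * (z : ℂ) ^ (-(12 : ℤ)) = th B z
  rw [h]
  have e : (-1 / (z : ℂ)) = (-(z : ℂ))⁻¹ := by
    rw [inv_neg, neg_div, one_div]
  rw [e]
  exact mul_comm _ _

/-- The general bound on the terms. -/
theorem norm_F_ofZ_le {B : Matrix (Fin m) (Fin m) ℤ} {c : ℝ} (hc : 0 < c)
    (hlow : ∀ x : Fin m → ℝ, c * N2 x ≤ x ⬝ᵥ (BR B *ᵥ x)) {ε : ℝ} (hε : 0 < ε) {τ : ℂ} (hτ : ε ≤ τ.im)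
    (n : Fin m → ℤ) :
    ‖F B τ (ofZ n)‖ ≤ Real.exp (-(π * ε * c) * ∑ i, ((n i : ℤ) : ℝ) ^ 2) := by
  rw [norm_F]
  apply Real.exp_le_exp.2
  have h1 := hlow (ofZ n)
  have h2 : N2 (ofZ n) = ∑ i, ((n i : ℤ) : ℝ) ^ 2 := rfl
  rw [← h2]
  have h3 : 0 ≤ N2 (ofZ n) := N2_nonneg _
  have h4 : 0 ≤ c * N2 (ofZ n) := by positivity
  have h5 : π * ε * (c * N2 (ofZ n)) ≤ π * τ.im * (ofZ n ⬝ᵥ (BR B *ᵥ ofZ n)) := by
    apply mul_le_mul (mul_le_mul_of_nonneg_left hτ Real.pi_pos.le) h1 h4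
    have : 0 < τ.im := lt_of_lt_of_le hε hτ
    positivity
  nlinarith

theorem differentiableOn_th {B : Matrix (Fin m) (Fin m) ℤ} {c : ℝ} (hc : 0 < c)
    (hlow : ∀ x : Fin m → ℝ, c * N2 x ≤ x ⬝ᵥ (BR B *ᵥ x)) {ε : ℝ} (hε : 0 < ε) :
    DifferentiableOn ℂ (th B) {z : ℂ | ε < z.im} := by
  have hU : IsOpen {z : ℂ | ε < z.im} := isOpen_lt continuous_const Complex.continuous_im
  refine differentiableOn_tsum_of_summable_norm (summable_exp_N2 m (a := π * ε * c) (by positivity))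
    (fun n => ?_) hU (fun n w hw => norm_F_ofZ_le hc hlow hε (le_of_lt hw) n)
  apply Differentiable.differentiableOn
  unfold F
  fun_prop

theorem mdiff_thetaFun {B : Matrix (Fin m) (Fin m) ℤ} {c : ℝ} (hc : 0 < c)
    (hlow : ∀ x : Fin m → ℝ, c * N2 x ≤ x ⬝ᵥ (BR B *ᵥ x)) : MDiff (thetaFun B) := by
  rw [UpperHalfPlane.mdifferentiable_iff]
  intro z hz
  have hz' : 0 < z.im := hz
  have h1 : DifferentiableAt ℂ (th B) z :=
    (differentiableOn_th hc hlow (half_pos hz')).differentiableAt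
      ((isOpen_lt continuous_const Complex.continuous_im).mem_nhds (half_lt_self hz'))
  refine h1.differentiableWithinAt.congr (fun w hw => ?_) ?_
  · have hw' : 0 < w.im := hw
    simp [thetaFun, ofComplex_apply_of_im_pos hw']
  · simp [thetaFun, ofComplex_apply_of_im_pos hz']

theorem bdd_thetaFun {B : Matrix (Fin m) (Fin m) ℤ} {c : ℝ} (hc : 0 < c)
    (hlow : ∀ x : Fin m → ℝ, c * N2 x ≤ x ⬝ᵥ (BR B *ᵥ x)) : IsBoundedAtImInfty (thetaFun B) := by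
  rw [isBoundedAtImInfty_iff]
  have hs := summable_exp_N2 m (a := π * 1 * c) (by positivity)
  refine ⟨_, 1, fun z hz => tsum_of_norm_bounded hs.hasSum fun n => norm_F_ofZ_le hc hlow one_pos hz n⟩

/-- The theta series as a modular form. -/
noncomputable def thetaForm (B : Matrix (Fin 24) (Fin 24) ℤ) (hsymm : B.IsSymm)
    (hpos : ∀ x : Fin 24 → ℤ, x ≠ 0 → 0 < x ⬝ᵥ (B *ᵥ x))
    (heven : ∀ x : Fin 24 → ℤ, (2 : ℤ) ∣ x ⬝ᵥ (B *ᵥ x)) (hdet : B.det = 1) : ModularForm 𝒮ℒ 12 where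
  toFun := thetaFun B
  slash_action_eq' A hA := by
    obtain ⟨A, rfl⟩ := hA
    exact slash_action_generators_SL2Z (thetaFun_S hsymm hpos hdet) (thetaFun_T hpos heven) A
  holo' := by
    obtain ⟨c, hc, hlow⟩ := exists_lower_QR B hsymm hpos hdet
    exact mdiff_thetaFun hc hlow
  bdd_at_cusps' hc := by
    obtain ⟨c, hc0, hlow⟩ := exists_lower_QR B hsymm hpos hdet
    rw [Subgroup.IsArithmetic.isCusp_iff_isCusp_SL2Z] at hc
    rw [OnePoint.isBoundedAt_iff_forall_SL2Z hc]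
    intro γ _
    rw [slash_action_generators_SL2Z (thetaFun_S hsymm hpos hdet) (thetaFun_T hpos heven)]
    exact bdd_thetaFun hc0 hlow

/-- The number of vectors of norm `2 k`. -/
noncomputable def rep (B : Matrix (Fin m) (Fin m) ℤ) (k : ℕ) : ℕ := Nat.card (hn B ⁻¹' {k})

theorem hasSum_rep {B : Matrix (Fin m) (Fin m) ℤ} (hsymm : B.IsSymm)
    (hpos : ∀ x : Fin m → ℤ, x ≠ 0 → 0 < x ⬝ᵥ (B *ᵥ x))
    (heven : ∀ x : Fin m → ℤ, (2 : ℤ) ∣ x ⬝ᵥ (B *ᵥ x)) (hdet : B.det = 1) (z : ℍ) :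
    HasSum (fun k : ℕ => ((rep B k : ℕ) : ℂ) • 𝕢 1 z ^ k) (thetaFun B z) := by
  obtain ⟨c, hc, hlow⟩ := exists_lower_QR B hsymm hpos hdet
  have h1 := (summable_F hc hlow z.im_pos).hasSum
  have h2 := h1.tsum_fiberwise (hn B)
  have h3 : (fun k => ∑' b : hn B ⁻¹' {k}, F B z (ofZ b)) = fun k : ℕ => ((rep B k : ℕ) : ℂ) • 𝕢 1 z ^ k := by
    funext k
    have h4 : ∀ b : hn B ⁻¹' {k}, F B z (ofZ b) = 𝕢 1 z ^ k := by
      intro b
      rw [F_ofZ_eq_pow hpos heven]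
      have h5 : hn B b = k := b.2
      rw [h5]
      simp [Function.Periodic.qParam]
    rw [tsum_congr h4, tsum_const]
    simp [rep]
  rw [h3] at h2
  exact h2

end Cfsg.Agent.Lib.Theta.Modular
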