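import Mathlib

/-!
# Poisson summation on `ℤ^d`

A continuous integrable function `f` on `ℝ^d`, whose translates by `ℤ^d` are summable uniformly on
bounded sets and whose Fourier transform at integer points is summable, satisfies
`∑ f(n) = ∑ f^(k)`.
-/

set_option autoImplicit false

namespace Cfsg.Agent.Lib.Theta.Poisson

open MeasureTheory UnitAddTorus Complex
open scoped Real

variable {d : Type*} [Fintype d]

/-- The projection to the torus. -/
noncomputable def toT : (d → ℝ) → UnitAddTorus d := fun x i => (x i : UnitAddCircle)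

theorem toT_isOpenQuotientMap : IsOpenQuotientMap (toT : (d → ℝ) → UnitAddTorus d) :=
  IsOpenQuotientMap.piMap (fun _ => QuotientAddGroup.isOpenQuotientMap_mk)

/-- An integer vector as a real vector. -/
def ofZ (n : d → ℤ) : d → ℝ := fun i => (n i : ℝ)

theorem toT_add_ofZ (x : d → ℝ) (n : d → ℤ) : toT (x + ofZ n) = toT x := by
  funext i
  show ((x i + (n i : ℝ) : ℝ) : UnitAddCircle) = (x i : UnitAddCircle)
  rw [AddCircle.coe_add]
  have h : ((n i : ℝ) : UnitAddCircle) = 0 := (AddCircle.coe_eq_zero_iff 1).2 ⟨n i, by simp⟩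
  rw [h, add_zero]

theorem exists_of_toT_eq {x y : d → ℝ} (h : toT x = toT y) : ∃ n : d → ℤ, x = y + ofZ n := by
  have h1 : ∀ i, ∃ m : ℤ, m • (1 : ℝ) = x i - y i := by
    intro i
    have h2 : ((x i : ℝ) : UnitAddCircle) = (y i : UnitAddCircle) := congrFun h i
    have h3 : ((x i - y i : ℝ) : UnitAddCircle) = 0 := by
      rw [AddCircle.coe_sub, h2, sub_self]
    exact (AddCircle.coe_eq_zero_iff 1).1 h3
  choose m hm using h1
  refine ⟨m, ?_⟩
  funext i
  have := hm i
  simp only [zsmul_eq_mul, mul_one] at this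
  show x i = y i + (m i : ℝ)
  linarith

/-- The periodisation. -/
noncomputable def per (f : (d → ℝ) → ℂ) (t : d → ℝ) : ℂ := ∑' n : d → ℤ, f (t + ofZ n)

theorem ofZ_add (n m : d → ℤ) : ofZ (n + m) = ofZ n + ofZ m := by
  funext i
  simp [ofZ]

theorem ofZ_zero : ofZ (0 : d → ℤ) = 0 := by
  funext i
  simp [ofZ]

theorem per_add (f : (d → ℝ) → ℂ) (t : d → ℝ) (m : d → ℤ) : per f (t + ofZ m) = per f t := by
  unfold per
  rw [← (Equiv.addRight m).tsum_eq (fun n : d → ℤ => f (t + ofZ n))]
  congr 1
  funext n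
  show f (t + ofZ m + ofZ n) = f (t + ofZ (n + m))
  rw [ofZ_add]
  congr 1
  abel

/-- Uniform summability of translates on bounded sets. -/
def UnifSum (f : (d → ℝ) → ℂ) : Prop :=
  ∀ R : ℝ, ∃ u : (d → ℤ) → ℝ, Summable u ∧ ∀ (n : d → ℤ) (t : d → ℝ), (∀ i, |t i| ≤ R) → ‖f (t + ofZ n)‖ ≤ u n

theorem continuous_per {f : (d → ℝ) → ℂ} (hf : Continuous f) (hu : UnifSum f) : Continuous (per f) := by
  rw [continuous_iff_continuousAt]
  intro t0
  obtain ⟨R, hR⟩ : ∃ R : ℝ, ∀ i, |t0 i| < R := by
    refine ⟨(∑ i, |t0 i|) + 1, fun i => ?_⟩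
    have : |t0 i| ≤ ∑ i, |t0 i| := Finset.single_le_sum (f := fun i => |t0 i|) (fun _ _ => abs_nonneg _) (Finset.mem_univ i)
    linarith
  obtain ⟨u, hu1, hu2⟩ := hu R
  have h1 : ContinuousOn (per f) {t : d → ℝ | ∀ i, |t i| ≤ R} := by
    refine continuousOn_tsum (fun n => ?_) hu1 (fun n t ht => hu2 n t ht)
    exact (hf.comp (continuous_id.add continuous_const)).continuousOn
  have h2 : {t : d → ℝ | ∀ i, |t i| ≤ R} ∈ nhds t0 := by
    have h3 : {t : d → ℝ | ∀ i, |t i| < R} ∈ nhds t0 := by
      have h4 : IsOpen {t : d → ℝ | ∀ i, |t i| < R} := by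
        have : {t : d → ℝ | ∀ i, |t i| < R} = ⋂ i, {t : d → ℝ | |t i| < R} := by
          ext t
          simp
        rw [this]
        exact isOpen_iInter_of_finite fun i =>
          isOpen_lt (continuous_abs.comp (continuous_apply i)) continuous_const
      exact h4.mem_nhds hR
    exact Filter.mem_of_superset h3 fun t ht i => (ht i).le
  exact h1.continuousAt h2

/-- The section of the projection. -/
noncomputable def sec (z : UnitAddTorus d) : d → ℝ :=
  Function.surjInv (toT_isOpenQuotientMap (d := d)).surjective z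

theorem toT_sec (z : UnitAddTorus d) : toT (sec z) = z :=
  Function.surjInv_eq _ z

/-- The periodisation on the torus. -/
noncomputable def perT (f : (d → ℝ) → ℂ) (z : UnitAddTorus d) : ℂ := per f (sec z)

theorem perT_toT (f : (d → ℝ) → ℂ) (x : d → ℝ) : perT f (toT x) = per f x := by
  obtain ⟨n, hn⟩ := exists_of_toT_eq (toT_sec (toT x))
  unfold perT
  rw [hn, per_add]

theorem continuous_perT {f : (d → ℝ) → ℂ} (hf : Continuous f) (hu : UnifSum f) : Continuous (perT f) := by
  rw [(toT_isOpenQuotientMap (d := d)).isQuotientMap.continuous_iff]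
  have : perT f ∘ toT = per f := funext (perT_toT f)
  rw [this]
  exact continuous_per hf hu

/-- The character. -/
noncomputable def chi (k : d → ℤ) (x : d → ℝ) : ℂ := mFourier (-k) (toT x)

theorem chi_add (k : d → ℤ) (x : d → ℝ) (n : d → ℤ) : chi k (x + ofZ n) = chi k x := by
  unfold chi
  rw [toT_add_ofZ]

theorem continuous_toT : Continuous (toT : (d → ℝ) → UnitAddTorus d) :=
  toT_isOpenQuotientMap.continuous

theorem continuous_chi (k : d → ℤ) : Continuous (chi k) :=
  (mFourier (-k)).continuous.comp continuous_toT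

theorem norm_chi (k : d → ℤ) (x : d → ℝ) : ‖chi k x‖ = 1 := by
  unfold chi
  have h : ‖(mFourier (-k)) (toT x)‖ = 1 := by
    simp only [mFourier, ContinuousMap.coe_mk, norm_prod]
    exact Finset.prod_eq_one fun i _ => Circle.norm_coe _
  exact h

/-- The Fourier transform at integer points. -/
noncomputable def fhat (f : (d → ℝ) → ℂ) (k : d → ℤ) : ℂ := ∫ x, chi k x * f x

/-- The cube above an integer vector. -/
def cube (n : d → ℤ) : Set (d → ℝ) := {x | ∀ i, x i ∈ Set.Ioc (n i : ℝ) ((n i : ℝ) + 1)}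

theorem measurableSet_cube (n : d → ℤ) : MeasurableSet (cube n) := by
  have : cube n = Set.pi Set.univ (fun i => Set.Ioc (n i : ℝ) ((n i : ℝ) + 1)) := by
    ext x
    simp [cube]
  rw [this]
  exact MeasurableSet.univ_pi fun i => measurableSet_Ioc

theorem mem_cube_add (n : d → ℤ) (x : d → ℝ) : x + ofZ n ∈ cube n ↔ x ∈ cube (0 : d → ℤ) := by
  simp only [cube, Set.mem_setOf_eq, Set.mem_Ioc, Pi.add_apply, ofZ, Pi.zero_apply, Int.cast_zero, zero_add]
  constructor
  · intro h i
    have := h i
    constructor <;> linarith [this.1, this.2]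
  · intro h i
    have := h i
    constructor <;> linarith [this.1, this.2]

theorem pairwise_cube : Pairwise (Function.onFun Disjoint (cube : (d → ℤ) → Set (d → ℝ))) := by
  intro n m hne
  rw [Function.onFun, Set.disjoint_left]
  intro x hx hy
  apply hne
  funext i
  have h1 := hx i
  have h2 := hy i
  have h3 : (n i : ℝ) < (m i : ℝ) + 1 := lt_of_lt_of_le h1.1 h2.2
  have h4 : (m i : ℝ) < (n i : ℝ) + 1 := lt_of_lt_of_le h2.1 h1.2
  have h5 : n i < m i + 1 := by exact_mod_cast h3
  have h6 : m i < n i + 1 := by exact_mod_cast h4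
  omega

theorem iUnion_cube : ⋃ n : d → ℤ, cube n = Set.univ := by
  rw [Set.eq_univ_iff_forall]
  intro x
  refine Set.mem_iUnion.2 ⟨fun i => ⌈x i⌉ - 1, fun i => ?_⟩
  constructor
  · have := Int.ceil_lt_add_one (x i)
    push_cast
    linarith
  · have := Int.le_ceil (x i)
    push_cast
    linarith

/-- Unfolding of an integral over the cubes. -/
theorem hasSum_cube {h : (d → ℝ) → ℂ} (hi : Integrable h) :
    HasSum (fun n : d → ℤ => ∫ x in cube n, h x) (∫ x, h x) := by
  have h1 := hasSum_integral_iUnion (μ := volume) (f := h) (s := (cube : (d → ℤ) → Set (d → ℝ)))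
    measurableSet_cube pairwise_cube (by rw [iUnion_cube]; exact hi.integrableOn)
  rw [iUnion_cube, Measure.restrict_univ] at h1
  exact h1

theorem integral_cube_translate (h : (d → ℝ) → ℂ) (n : d → ℤ) :
    ∫ x in cube n, h x = ∫ x in cube (0 : d → ℤ), h (x + ofZ n) := by
  rw [← integral_indicator (measurableSet_cube n), ← integral_indicator (measurableSet_cube 0)]
  rw [← integral_add_right_eq_self (μ := volume) _ (ofZ n)]
  congr 1
  funext x
  by_cases hx : x ∈ cube (0 : d → ℤ)
  · rw [Set.indicator_of_mem hx, Set.indicator_of_mem ((mem_cube_add n x).2 hx)]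
  · rw [Set.indicator_of_notMem hx, Set.indicator_of_notMem (fun h' => hx ((mem_cube_add n x).1 h'))]

theorem cube_zero_bound {x : d → ℝ} (hx : x ∈ cube (0 : d → ℤ)) (i : d) : |x i| ≤ 1 := by
  have h := hx i
  simp only [Pi.zero_apply, Int.cast_zero, zero_add, Set.mem_Ioc] at h
  rw [abs_of_pos h.1]
  exact h.2

theorem volume_cube_zero_lt : volume (cube (0 : d → ℤ)) < ⊤ := by
  have h1 : cube (0 : d → ℤ) ⊆ Set.Icc (0 : d → ℝ) 1 := by
    intro x hx
    constructor
    · intro i
      have h := hx i
      simp only [Pi.zero_apply, Int.cast_zero, zero_add, Set.mem_Ioc] at h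
      exact h.1.le
    · intro i
      have h := hx i
      simp only [Pi.zero_apply, Int.cast_zero, zero_add, Set.mem_Ioc] at h
      exact h.2
  exact lt_of_le_of_lt (measure_mono h1) isCompact_Icc.measure_lt_top

/-- The Fourier coefficients of the periodisation. -/
theorem mFourierCoeff_perT {f : (d → ℝ) → ℂ} (hf : Continuous f) (hu : UnifSum f) (hi : Integrable f)
    (k : d → ℤ) : mFourierCoeff (perT f) k = fhat f k := by
  classical
  have h1 : mFourierCoeff (perT f) k = ∫ x in cube (0 : d → ℤ), chi k x * per f x := by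
    rw [mFourierCoeff_eq_integral _ k 0]
    have e : {x : d → ℝ | ∀ i, x i ∈ Set.Ioc ((0 : d → ℝ) i) ((0 : d → ℝ) i + 1)} = cube (0 : d → ℤ) := by
      ext x
      simp [cube]
    rw [e]
    refine setIntegral_congr_fun (measurableSet_cube 0) fun x _ => ?_
    have e2 : (fun i => (x i : UnitAddCircle)) = toT x := rfl
    simp only [e2, perT_toT, smul_eq_mul]
    rfl
  obtain ⟨u, hu1, hu2⟩ := hu 1
  have hmeas : ∀ n : d → ℤ, Continuous fun x : d → ℝ => chi k x * f (x + ofZ n) := fun n =>
    (continuous_chi k).mul (hf.comp (continuous_id.add continuous_const))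
  have hbd : ∀ (n : d → ℤ) (x : d → ℝ), x ∈ cube (0 : d → ℤ) → ‖chi k x * f (x + ofZ n)‖ ≤ u n := by
    intro n x hx
    rw [norm_mul, norm_chi, one_mul]
    exact hu2 n x (cube_zero_bound hx)
  have hint : ∀ n : d → ℤ, Integrable (fun x : d → ℝ => chi k x * f (x + ofZ n)) (volume.restrict (cube (0 : d → ℤ))) := by
    intro n
    refine Measure.integrableOn_of_bounded (M := u n) volume_cube_zero_lt.ne (hmeas n).aestronglyMeasurable ?_
    filter_upwards [ae_restrict_mem (measurableSet_cube 0)] with x hx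
    exact hbd n x hx
  have hV : (volume (cube (0 : d → ℤ))).toReal ≥ 0 := ENNReal.toReal_nonneg
  have hsum : Summable fun n : d → ℤ => ∫ x in cube (0 : d → ℤ), ‖chi k x * f (x + ofZ n)‖ := by
    refine Summable.of_nonneg_of_le (fun n => integral_nonneg fun _ => norm_nonneg _) (fun n => ?_)
      (hu1.mul_right (volume (cube (0 : d → ℤ))).toReal)
    have := norm_setIntegral_le_of_norm_le_const (μ := volume) (s := cube (0 : d → ℤ))
      (f := fun x : d → ℝ => ‖chi k x * f (x + ofZ n)‖) (C := u n) volume_cube_zero_lt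
      (fun x hx => by
        rw [norm_norm]
        exact hbd n x hx)
    refine le_trans (le_abs_self _) ?_
    rw [← Real.norm_eq_abs]
    simpa [Measure.real] using this
  have h2 := hasSum_integral_of_summable_integral_norm hint hsum
  have h3 : (∫ x in cube (0 : d → ℤ), ∑' n : d → ℤ, chi k x * f (x + ofZ n)) = ∫ x in cube (0 : d → ℤ), chi k x * per f x := by
    congr 1
    funext x
    rw [per, tsum_mul_left]
  rw [h3] at h2
  have hi2 : Integrable fun x => chi k x * f x := by
    refine hi.bdd_mul (c := 1) (continuous_chi k).aestronglyMeasurable ?_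
    filter_upwards with x
    rw [norm_chi]
  have h4 := hasSum_cube hi2
  have h5 : (fun n : d → ℤ => ∫ x in cube (0 : d → ℤ), chi k x * f (x + ofZ n)) =
      fun n : d → ℤ => ∫ x in cube n, chi k x * f x := by
    funext n
    rw [integral_cube_translate (fun x => chi k x * f x) n]
    refine setIntegral_congr_fun (measurableSet_cube 0) fun x _ => ?_
    simp only [chi_add]
  rw [h5] at h2
  rw [h1]
  exact h2.unique h4

/-- **Poisson summation** on `ℤ^d`. -/
theorem hasSum_fhat {f : (d → ℝ) → ℂ} (hf : Continuous f) (hu : UnifSum f) (hi : Integrable f)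
    (hs : Summable (fhat f)) : HasSum (fhat f) (∑' n : d → ℤ, f (ofZ n)) := by
  classical
  let G : C(UnitAddTorus d, ℂ) := ⟨perT f, continuous_perT hf hu⟩
  have hG : ∀ k, mFourierCoeff G k = fhat f k := fun k => mFourierCoeff_perT hf hu hi k
  have hs' : Summable (mFourierCoeff G) := by
    have : mFourierCoeff (⇑G) = fhat f := funext hG
    rw [this]
    exact hs
  have h1 := hasSum_mFourier_series_apply_of_summable hs' (toT (0 : d → ℝ))
  have h2 : ∀ k : d → ℤ, mFourier k (toT (0 : d → ℝ)) = 1 := by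
    intro k
    simp only [mFourier, ContinuousMap.coe_mk]
    refine Finset.prod_eq_one fun i _ => ?_
    show fourier (k i) (((0 : d → ℝ) i : ℝ) : UnitAddCircle) = 1
    simp
  have h3 : G (toT (0 : d → ℝ)) = ∑' n : d → ℤ, f (ofZ n) := by
    show perT f (toT 0) = _
    rw [perT_toT, per]
    simp only [zero_add]
  rw [h3] at h1
  convert h1 using 1
  funext k
  rw [h2, hG]
  simp

end Cfsg.Agent.Lib.Theta.Poisson
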